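import Cfsg.Agent.Lib.Conway.X46.Rep
import Cfsg.Agent.Lib.Conway.McLUse

/-!
# The second Conway group acting on 4600 vectors of the lattice
-/

set_option autoImplicit false

namespace Cfsg.Agent.Lib.Conway.X46

open Cfsg Cfsg.Spor Cfsg.Agent.Lib.Compute Cfsg.Agent.Lib.Golay
open Cfsg.Agent.Lib.KnownSimple Cfsg.Agent.Lib.KnownSimple.PE Cfsg.Agent.Lib.KnownSimple.Leech
open Cfsg.Agent.Lib.Conway

/-- The encoding. -/
abbrev E : Enc (Fin N) N := encFin N

/-- Lookup in a permutation table. -/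
noncomputable def pq (t : List (List (List ℕ))) (i : ℕ) : ℕ := pgetH 13 8191 t i

theorem tests_iff (x : LL) : testsOK R.tests (toF x.1) = true ↔ dotInt x.1 leechU.1 = -16 := by
  rw [testsOK_iff]
  have m1 : ((rowU, -16) : List (ℕ × ℤ) × ℤ) ∈ R.tests := by
    simp [R, tests]
  have h1 : dotS rowU (toF x.1) = dotInt x.1 leechU.1 := LRep.dotS_toF (R.hcols _ m1) rowU_pt x
  constructor
  · intro h
    rw [← h1]
    exact h _ m1
  · intro h t ht
    simp only [R, tests, List.mem_cons, List.not_mem_nil, or_false] at ht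
    rw [ht]
    show dotS rowU (toF x.1) = -16
    rw [h1, h]

theorem XD_base : XD leechU (-16) = Set.range R.vec := by
  rw [TabUse.range_vec]
  ext x
  constructor
  · rintro ⟨h1, h2⟩
    exact ⟨h1, (tests_iff x).2 (by rw [dotInt_comm]; exact h2)⟩
  · rintro ⟨h1, h2⟩
    exact ⟨h1, by rw [dotInt_comm]; exact (tests_iff x).1 h2⟩

/-! ### The generators -/

/-- Elements of the McLaughlin group lie in the group. -/
noncomputable def ofM (g : ↥Spor.McL) : ↥Spor.Co2 := ⟨g.1, g.2.1.1, g.2.2⟩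

theorem chkSS : chkElt SS SS = true := by decide +kernel
/-- A sign change. -/
noncomputable def sP : Equiv.Perm LL := Classical.choose (exists_elt chkSS)
theorem sP_co0 : sP ∈ Co0 := (Classical.choose_spec (exists_elt chkSS)).1
theorem sP_spec : ∀ (x : LL) (j : ℕ), j < 24 → dotS (rowOf SS j) (toF x) = 8 * ((sP x : LL) : Vec) (pt j) :=
  (Classical.choose_spec (exists_elt chkSS)).2
theorem colsS : ∀ i, ∀ q ∈ rowOf SS i, q.1 < 24 := cols_of_all (by decide +kernel)
theorem sP_u : sP leechU = leechU := img_of_S colsS sP_spec rowU_pt rowU_pt (by decide +kernel)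

/-- The generators. -/
noncomputable def gT : ℕ → ↥Spor.Co2 :=
  lgetD 1 [ofM McL.gU, ofM McL.gX, ofM McL.gY, ofM McL.gE, ⟨sP, sP_co0, sP_u⟩]

theorem code0 : E.IsCode (R.rep (gT 0)) (pq tU) :=
  R.code_of_P (g := gT 0) (π := ⟨_, MathieuFacts.mem_U⟩) rfl MathieuFacts.code_U (by decide +kernel)
theorem code1 : E.IsCode (R.rep (gT 1)) (pq tX) :=
  R.code_of_P (g := gT 1) (π := ⟨_, MathieuFacts.mem_X⟩) rfl MathieuFacts.code_X (by decide +kernel)
theorem code2 : E.IsCode (R.rep (gT 2)) (pq tY) :=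
  R.code_of_P (g := gT 2) (π := ⟨_, MathieuFacts.mem_Y4⟩) rfl MathieuFacts.code_Y4 (by decide +kernel)
theorem code3 : E.IsCode (R.rep (gT 3)) (pq tE) :=
  R.code_of_S (g := gT 3) McL.colsE McL.eP_spec (by decide +kernel)
theorem code4 : E.IsCode (R.rep (gT 4)) (pq tS) :=
  R.code_of_S (g := gT 4) colsS sP_spec (by decide +kernel)

/-- The tree of the group on the table. -/
noncomputable def LT : Lev :=
  { b := 0, D := fullD, arr := arrT, w := 20, m := 1048575, mp := 8191, bn := 13, mg := 7, bd := 16,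
    fs := lgetD (fun a => a) [pq tU, pq tX, pq tY, pq tE, pq tS], gs := fun k => cdOf E (R.rep (gT k))⁻¹ }

theorem treeT : LT.treeOK N = true := by decide +kernel
theorem fullT : allBelow (tb LT.D) N = true := by decide +kernel

theorem gensT : GensIn E R.rep.range LT := by
  intro k
  refine ⟨R.rep (gT k), ⟨_, rfl⟩, ?_, isCode_cdOf _⟩
  match k with
  | 0 => exact code0
  | 1 => exact code1
  | 2 => exact code2
  | 3 => exact code3
  | 4 => exact code4
  | (k + 5) =>
    show E.IsCode (R.rep 1) (fun a => a)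
    rw [map_one]
    exact isCode_one E

theorem trans_tab (i j : Fin N) : ∃ g : ↥Spor.Co2, g.1 (R.vec i) = R.vec j := by
  obtain ⟨g, _, e⟩ := TabUse.trans_of_treeOK R (le_refl _) gensT treeT
    ((allBelow_iff _ _).1 fullT i i.isLt) ((allBelow_iff _ _).1 fullT j j.isLt)
  exact ⟨g, e⟩

theorem trans_XD {x x' : LL} (hx : x ∈ XD leechU (-16)) (hx' : x' ∈ XD leechU (-16)) : ∃ g : ↥Spor.Co2, g.1 x = x' := by
  rw [XD_base] at hx hx'
  obtain ⟨i, rfl⟩ := hx
  obtain ⟨j, rfl⟩ := hx'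
  exact trans_tab i j

/-- The transitivity on the 4600 vectors. -/
theorem S1574_aux (v w w' : LL) (hv : sqNorm v.1 = 32) (hw : sqNorm w.1 = 32) (hw' : sqNorm w'.1 = 32) (hd : dotInt v.1 w.1 = -16)
    (hd' : dotInt v.1 w'.1 = -16) : ∃ g ∈ Co0, g v = v ∧ g w = w' := by
  obtain ⟨k, hk, e⟩ := orb32 v hv
  have himg := XD_image hk v (-16)
  rw [e] at himg
  have h1 : k w ∈ XD leechU (-16) := by
    rw [← himg]
    exact ⟨w, ⟨hw, hd⟩, rfl⟩
  have h2 : k w' ∈ XD leechU (-16) := by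
    rw [← himg]
    exact ⟨w', ⟨hw', hd'⟩, rfl⟩
  obtain ⟨t, ht⟩ := trans_XD h1 h2
  refine ⟨k⁻¹ * t.1 * k, mul_mem (mul_mem (inv_mem hk) t.2.1) hk, ?_, ?_⟩
  · simp only [Equiv.Perm.mul_apply]
    rw [e, show t.1 leechU = leechU from t.2.2, ← e]
    simp
  · simp only [Equiv.Perm.mul_apply]
    rw [ht]
    simp

end Cfsg.Agent.Lib.Conway.X46
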