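import Cfsg.Agent.Lib.Conway.PGetH
import Cfsg.Agent.Lib.Conway.X46.Data

/-!
# A table of 4600 vectors of the lattice : definitions
-/

set_option autoImplicit false

namespace Cfsg.Agent.Lib.Conway.X46

open Cfsg Cfsg.Spor Cfsg.Agent.Lib.Compute Cfsg.Agent.Lib.Golay Cfsg.Agent.Lib.KnownSimple.PE
open Cfsg.Agent.Lib.KnownSimple.Leech Cfsg.Agent.Lib.Conway

/-- The number of points. -/
abbrev N : ℕ := 4600

/-- The table of vectors. -/
noncomputable def tab (i : ℕ) : ℕ := pgetH 120 1329227995784915872903807060280344575 vtbl i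

/-- The tests. -/
noncomputable def tests : List (List (ℕ × ℤ) × ℤ) := [(rowU, -16)]

/-- The test on vectors. -/
noncomputable def Pc : (ℕ → ℤ) → Bool := classP tab N tests

end Cfsg.Agent.Lib.Conway.X46
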