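import Cfsg.Agent.Lib.Conway.PGetH
import Cfsg.Agent.Lib.Conway.X46.Data
import Cfsg.Agent.Lib.Conway.X46.Rep0

/-!
# A table of 4600 vectors of the lattice : checks 1
-/

set_option autoImplicit false

namespace Cfsg.Agent.Lib.Conway.X46

open Cfsg Cfsg.Spor Cfsg.Agent.Lib.Compute Cfsg.Agent.Lib.Golay Cfsg.Agent.Lib.KnownSimple.PE
open Cfsg.Agent.Lib.KnownSimple.Leech

set_option maxRecDepth 100000 in
theorem hB16 : chunk (gB Pc) 64 16 = true := by decide +kernel
set_option maxRecDepth 100000 in
theorem hB17 : chunk (gB Pc) 64 17 = true := by decide +kernel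
set_option maxRecDepth 100000 in
theorem hB18 : chunk (gB Pc) 64 18 = true := by decide +kernel
set_option maxRecDepth 100000 in
theorem hB19 : chunk (gB Pc) 64 19 = true := by decide +kernel
set_option maxRecDepth 100000 in
theorem hB20 : chunk (gB Pc) 64 20 = true := by decide +kernel
set_option maxRecDepth 100000 in
theorem hB21 : chunk (gB Pc) 64 21 = true := by decide +kernel
set_option maxRecDepth 100000 in
theorem hB22 : chunk (gB Pc) 64 22 = true := by decide +kernel
set_option maxRecDepth 100000 in
theorem hB23 : chunk (gB Pc) 64 23 = true := by decide +kernel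
set_option maxRecDepth 100000 in
theorem hB24 : chunk (gB Pc) 64 24 = true := by decide +kernel
set_option maxRecDepth 100000 in
theorem hB25 : chunk (gB Pc) 64 25 = true := by decide +kernel
set_option maxRecDepth 100000 in
theorem hB26 : chunk (gB Pc) 64 26 = true := by decide +kernel
set_option maxRecDepth 100000 in
theorem hB27 : chunk (gB Pc) 64 27 = true := by decide +kernel
set_option maxRecDepth 100000 in
theorem hB28 : chunk (gB Pc) 64 28 = true := by decide +kernel
set_option maxRecDepth 100000 in
theorem hB29 : chunk (gB Pc) 64 29 = true := by decide +kernel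
set_option maxRecDepth 100000 in
theorem hB30 : chunk (gB Pc) 64 30 = true := by decide +kernel
set_option maxRecDepth 100000 in
theorem hB31 : chunk (gB Pc) 64 31 = true := by decide +kernel

end Cfsg.Agent.Lib.Conway.X46
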