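import Cfsg.Agent.Lib.Conway.PGetH
import Cfsg.Agent.Lib.Conway.X46.Data
import Cfsg.Agent.Lib.Conway.X46.Rep0

/-!
# A table of 4600 vectors of the lattice : checks 2
-/

set_option autoImplicit false

namespace Cfsg.Agent.Lib.Conway.X46

open Cfsg Cfsg.Spor Cfsg.Agent.Lib.Compute Cfsg.Agent.Lib.Golay Cfsg.Agent.Lib.KnownSimple.PE
open Cfsg.Agent.Lib.KnownSimple.Leech

set_option maxRecDepth 100000 in
theorem hB32 : chunk (gB Pc) 64 32 = true := by decide +kernel
set_option maxRecDepth 100000 in
theorem hB33 : chunk (gB Pc) 64 33 = true := by decide +kernel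
set_option maxRecDepth 100000 in
theorem hB34 : chunk (gB Pc) 64 34 = true := by decide +kernel
set_option maxRecDepth 100000 in
theorem hB35 : chunk (gB Pc) 64 35 = true := by decide +kernel
set_option maxRecDepth 100000 in
theorem hB36 : chunk (gB Pc) 64 36 = true := by decide +kernel
set_option maxRecDepth 100000 in
theorem hB37 : chunk (gB Pc) 64 37 = true := by decide +kernel
set_option maxRecDepth 100000 in
theorem hB38 : chunk (gB Pc) 64 38 = true := by decide +kernel
set_option maxRecDepth 100000 in
theorem hB39 : chunk (gB Pc) 64 39 = true := by decide +kernel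
set_option maxRecDepth 100000 in
theorem hB40 : chunk (gB Pc) 64 40 = true := by decide +kernel
set_option maxRecDepth 100000 in
theorem hB41 : chunk (gB Pc) 64 41 = true := by decide +kernel
set_option maxRecDepth 100000 in
theorem hB42 : chunk (gB Pc) 64 42 = true := by decide +kernel
set_option maxRecDepth 100000 in
theorem hB43 : chunk (gB Pc) 64 43 = true := by decide +kernel
set_option maxRecDepth 100000 in
theorem hB44 : chunk (gB Pc) 64 44 = true := by decide +kernel
set_option maxRecDepth 100000 in
theorem hB45 : chunk (gB Pc) 64 45 = true := by decide +kernel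
set_option maxRecDepth 100000 in
theorem hB46 : chunk (gB Pc) 64 46 = true := by decide +kernel
set_option maxRecDepth 100000 in
theorem hB47 : chunk (gB Pc) 64 47 = true := by decide +kernel

end Cfsg.Agent.Lib.Conway.X46
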