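import Cfsg.Agent.Lib.Conway.PGetH
import Cfsg.Agent.Lib.Conway.X46.Data
import Cfsg.Agent.Lib.Conway.X46.Rep0

/-!
# A table of 4600 vectors of the lattice : checks 3
-/

set_option autoImplicit false

namespace Cfsg.Agent.Lib.Conway.X46

open Cfsg Cfsg.Spor Cfsg.Agent.Lib.Compute Cfsg.Agent.Lib.Golay Cfsg.Agent.Lib.KnownSimple.PE
open Cfsg.Agent.Lib.KnownSimple.Leech

set_option maxRecDepth 100000 in
theorem hB48 : chunk (gB Pc) 64 48 = true := by decide +kernel
set_option maxRecDepth 100000 in
theorem hB49 : chunk (gB Pc) 64 49 = true := by decide +kernel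
set_option maxRecDepth 100000 in
theorem hB50 : chunk (gB Pc) 64 50 = true := by decide +kernel
set_option maxRecDepth 100000 in
theorem hB51 : chunk (gB Pc) 64 51 = true := by decide +kernel
set_option maxRecDepth 100000 in
theorem hB52 : chunk (gB Pc) 64 52 = true := by decide +kernel
set_option maxRecDepth 100000 in
theorem hB53 : chunk (gB Pc) 64 53 = true := by decide +kernel
set_option maxRecDepth 100000 in
theorem hB54 : chunk (gB Pc) 64 54 = true := by decide +kernel
set_option maxRecDepth 100000 in
theorem hB55 : chunk (gB Pc) 64 55 = true := by decide +kernel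
set_option maxRecDepth 100000 in
theorem hB56 : chunk (gB Pc) 64 56 = true := by decide +kernel
set_option maxRecDepth 100000 in
theorem hB57 : chunk (gB Pc) 64 57 = true := by decide +kernel
set_option maxRecDepth 100000 in
theorem hB58 : chunk (gB Pc) 64 58 = true := by decide +kernel
set_option maxRecDepth 100000 in
theorem hB59 : chunk (gB Pc) 64 59 = true := by decide +kernel
set_option maxRecDepth 100000 in
theorem hB60 : chunk (gB Pc) 64 60 = true := by decide +kernel
set_option maxRecDepth 100000 in
theorem hB61 : chunk (gB Pc) 64 61 = true := by decide +kernel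
set_option maxRecDepth 100000 in
theorem hB62 : chunk (gB Pc) 64 62 = true := by decide +kernel
set_option maxRecDepth 100000 in
theorem hB63 : chunk (gB Pc) 64 63 = true := by decide +kernel

end Cfsg.Agent.Lib.Conway.X46
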