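import Cfsg.Agent.Lib.Conway.PGetH
import Cfsg.Agent.Lib.Conway.X46.Data
import Cfsg.Agent.Lib.Conway.X46.Rep0

/-!
# A table of 4600 vectors of the lattice : checks of the last shape
-/

set_option autoImplicit false

namespace Cfsg.Agent.Lib.Conway.X46

open Cfsg Cfsg.Spor Cfsg.Agent.Lib.Compute Cfsg.Agent.Lib.Golay Cfsg.Agent.Lib.KnownSimple.PE
open Cfsg.Agent.Lib.KnownSimple.Leech

theorem hC0 : chunk (gC Pc) 256 0 = true := by decide +kernel
theorem hC1 : chunk (gC Pc) 256 1 = true := by decide +kernel
theorem hC2 : chunk (gC Pc) 256 2 = true := by decide +kernel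
theorem hC3 : chunk (gC Pc) 256 3 = true := by decide +kernel
theorem hC4 : chunk (gC Pc) 256 4 = true := by decide +kernel
theorem hC5 : chunk (gC Pc) 256 5 = true := by decide +kernel
theorem hC6 : chunk (gC Pc) 256 6 = true := by decide +kernel
theorem hC7 : chunk (gC Pc) 256 7 = true := by decide +kernel
theorem hC8 : chunk (gC Pc) 256 8 = true := by decide +kernel
theorem hC9 : chunk (gC Pc) 256 9 = true := by decide +kernel
theorem hC10 : chunk (gC Pc) 256 10 = true := by decide +kernel
theorem hC11 : chunk (gC Pc) 256 11 = true := by decide +kernel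
theorem hC12 : chunk (gC Pc) 256 12 = true := by decide +kernel
theorem hC13 : chunk (gC Pc) 256 13 = true := by decide +kernel
theorem hC14 : chunk (gC Pc) 256 14 = true := by decide +kernel
theorem hC15 : chunk (gC Pc) 256 15 = true := by decide +kernel

end Cfsg.Agent.Lib.Conway.X46
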